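import Mathlib.RingTheory.IntegralDomain
import Mathlib.RingTheory.Adjoin.Basic
import Mathlib.GroupTheory.GroupAction.Quotient
import Mathlib.LinearAlgebra.FiniteDimensional.Basic
import Mathlib.FieldTheory.Finite.Basic
import Mathlib.GroupTheory.Index
import Mathlib.Algebra.CharP.Lemmas
import Mathlib.Algebra.Polynomial.Roots
import Mathlib.RingTheory.Artinian.Module

/-!
Linear groups over the prime field that are regular on the non-zero vectors: their normal abelian
subgroups.
-/

namespace Cfsg.Agent.PermLib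

variable {p : ℕ} [Fact p.Prime] {V : Type*} [AddCommGroup V] [Module (ZMod p) V] [Finite V]
  (H : Subgroup (V ≃ₗ[ZMod p] V))

/-- Regularity on non-zero vectors. -/
abbrev RegularOnVectors : Prop :=
  ∀ v w : V, v ≠ 0 → w ≠ 0 → ∃! h : H, (h : V ≃ₗ[ZMod p] V) v = w

/-- Invariance of a subspace under a subgroup. -/
abbrev InvariantUnder (A : Subgroup H) (W : Submodule (ZMod p) V) : Prop :=
  ∀ a ∈ A, ∀ v ∈ W, ((a : H) : V ≃ₗ[ZMod p] V) v ∈ W

variable {H}

theorem eq_one_of_fixed (hreg : RegularOnVectors H) {h : H} {v : V} (hv : v ≠ 0)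
    (hfix : (h : V ≃ₗ[ZMod p] V) v = v) : h = 1 :=
  (hreg v v hv hv).unique hfix rfl

theorem finite_subgroup : Finite H :=
  Finite.of_injective (fun h : H => ((h : V ≃ₗ[ZMod p] V) : V → V))
    fun _ _ e => Subtype.ext (LinearEquiv.coe_injective.eq_iff.1 e)

theorem card_regular (hreg : RegularOnVectors H) [Nontrivial V] :
    Nat.card H + 1 = p ^ Module.finrank (ZMod p) V := by
  classical
  haveI : Fintype V := Fintype.ofFinite V
  obtain ⟨v₀, hv₀⟩ := exists_ne (0 : V)
  have hbij : Function.Bijective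
      (fun h : H => (⟨(h : V ≃ₗ[ZMod p] V) v₀,
        by simpa using hv₀⟩ : {w : V // w ≠ 0})) := by
    refine ⟨fun a b e => (hreg v₀ _ hv₀ (by simpa using hv₀)).unique
      (congrArg Subtype.val e) rfl, fun w => ?_⟩
    obtain ⟨h, hh, -⟩ := hreg v₀ w hv₀ w.2
    exact ⟨h, Subtype.ext hh⟩
  rw [Nat.card_eq_of_bijective _ hbij, Nat.card_eq_fintype_card, Fintype.card_subtype_compl,
    Fintype.card_subtype_eq, Nat.sub_add_cancel Fintype.card_pos,
    Module.card_eq_pow_finrank (K := ZMod p) (V := V), ZMod.card]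

theorem exists_minimal_invariant [Nontrivial V] (A : Subgroup H) :
    ∃ W : Submodule (ZMod p) V, W ≠ ⊥ ∧ InvariantUnder H A W ∧
      ∀ W' : Submodule (ZMod p) V, W' ≤ W → InvariantUnder H A W' → W' = ⊥ ∨ W' = W := by
  haveI : Finite (Submodule (ZMod p) V) := Finite.of_injective _ SetLike.coe_injective
  obtain ⟨W, ⟨hW, hinv⟩, hmin⟩ := WellFounded.has_min wellFounded_lt
    {W : Submodule (ZMod p) V | W ≠ ⊥ ∧ InvariantUnder H A W}
    ⟨⊤, top_ne_bot, fun _ _ _ _ => Submodule.mem_top⟩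
  refine ⟨W, hW, hinv, fun W' hle hW' => or_iff_not_imp_left.2 fun hne => ?_⟩
  by_contra hneq
  exact hmin W' ⟨hne, hW'⟩ (lt_of_le_of_ne hle hneq)

/-- An abelian subgroup: cyclic, and `|A|` determines the dimension of a minimal invariant
subspace. -/
theorem abelian_structure (hreg : RegularOnVectors H) {A : Subgroup H} (hA : IsMulCommutative A)
    {W : Submodule (ZMod p) V} (hW : W ≠ ⊥) (hinv : InvariantUnder H A W)
    (hmin : ∀ W' : Submodule (ZMod p) V, W' ≤ W → InvariantUnder H A W' → W' = ⊥ ∨ W' = W) :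
    IsCyclic A ∧ Nat.card A ∣ p ^ Module.finrank (ZMod p) W - 1 ∧
      ∀ j : ℕ, Nat.card A ∣ p ^ j - 1 → 0 < j → Module.finrank (ZMod p) W ≤ j := by
  classical
  haveI : Finite H := finite_subgroup
  let ρ : A →* Module.End (ZMod p) W :=
    { toFun := fun a => (((a : H) : V ≃ₗ[ZMod p] V) : V →ₗ[ZMod p] V).restrict
        (fun v hv => hinv a a.2 v hv)
      map_one' := by ext v; rfl
      map_mul' := fun a b => by ext v; rfl }
  let R : Subalgebra (ZMod p) (Module.End (ZMod p) W) :=
    Algebra.adjoin (ZMod p) (Set.range ρ)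
  have hcomm : ∀ x ∈ R, ∀ y ∈ R, x * y = y * x := by
    intro x hx y hy
    exact Algebra.commute_of_mem_adjoin_of_forall_mem_commute hy
      (fun b hb => by
        obtain ⟨b, rfl⟩ := hb
        exact (Algebra.commute_of_mem_adjoin_of_forall_mem_commute hx (fun a ha => by
          obtain ⟨a, rfl⟩ := ha
          exact (Commute.map (hA.is_comm.comm b a) ρ : Commute (ρ b) (ρ a)))).symm)
  letI : CommRing R :=
    { (inferInstance : Ring R) with
      mul_comm := fun x y => Subtype.ext (hcomm x x.2 y y.2) }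
  have hker : ∀ r : R, r ≠ 0 → ∀ w : W, (r : Module.End (ZMod p) W) w = 0 → w = 0 := by
    intro r hr w hw
    let W' : Submodule (ZMod p) V := (LinearMap.ker (r : Module.End (ZMod p) W)).map W.subtype
    have hW' : InvariantUnder H A W' := by
      intro a ha _ hv
      obtain ⟨u, hu, rfl⟩ := hv
      refine ⟨ρ ⟨a, ha⟩ u, ?_, rfl⟩
      rw [SetLike.mem_coe, LinearMap.mem_ker] at hu ⊢
      have h := hcomm r r.2 (ρ ⟨a, ha⟩) (Algebra.subset_adjoin ⟨_, rfl⟩)
      have h' := LinearMap.congr_fun h u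
      rw [Module.End.mul_apply, Module.End.mul_apply, hu, map_zero] at h'
      exact h'
    rcases hmin W' (Submodule.map_subtype_le _ _) hW' with h | h
    · have : (w : V) ∈ W' := ⟨w, hw, rfl⟩
      rw [h, Submodule.mem_bot] at this
      exact Subtype.ext this
    · exfalso
      refine hr (Subtype.ext (LinearMap.ext fun u => ?_))
      obtain ⟨u', hu', he⟩ : (u : V) ∈ W' := by rw [h]; exact u.2
      rw [← (Subtype.ext he : u' = u)]
      exact hu'
  obtain ⟨v₀, hv₀, hv₀'⟩ := W.exists_mem_ne_zero_of_ne_bot hW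
  let w₀ : W := ⟨v₀, hv₀⟩
  have hw₀ : w₀ ≠ 0 := fun e => hv₀' (congrArg Subtype.val e)
  haveI : Nontrivial W := ⟨⟨w₀, 0, hw₀⟩⟩
  haveI : Nontrivial R := ⟨⟨1, 0, fun e => hw₀ (by
    have := congrArg (fun r : R => (r : Module.End (ZMod p) W) w₀) e
    simpa using this)⟩⟩
  haveI : NoZeroDivisors R := ⟨fun {x y} hxy => by
    by_contra hc
    push Not at hc
    refine hc.2 (Subtype.ext (LinearMap.ext fun u => hker x hc.1 _ ?_))
    rw [← Module.End.mul_apply, ← Subalgebra.coe_mul, hxy]
    rfl⟩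
  haveI : IsDomain R := NoZeroDivisors.to_isDomain R
  let ρ' : A →* R :=
    { toFun := fun a => ⟨ρ a, Algebra.subset_adjoin ⟨a, rfl⟩⟩
      map_one' := Subtype.ext ρ.map_one
      map_mul' := fun a b => Subtype.ext (ρ.map_mul a b) }
  have hinjρ : ∀ a : A, ρ a w₀ = w₀ → a = 1 := fun a h =>
    Subtype.ext (eq_one_of_fixed hreg hv₀' (congrArg Subtype.val h))
  have hρ' : Function.Injective ρ' := by
    refine (injective_iff_map_eq_one ρ').2 fun a ha => hinjρ a ?_
    have : ρ a = 1 := congrArg Subtype.val ha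
    rw [this, Module.End.one_apply]
  haveI : IsCyclic A := isCyclic_of_injective_ringHom ρ' hρ'
  -- the algebra is as big as the subspace
  let θ : R →ₗ[ZMod p] W :=
    { toFun := fun r => (r : Module.End (ZMod p) W) w₀
      map_add' := fun _ _ => rfl
      map_smul' := fun _ _ => rfl }
  have hθi : Function.Injective θ := by
    rw [← LinearMap.ker_eq_bot, LinearMap.ker_eq_bot']
    intro r hr
    by_contra hne
    exact hw₀ (hker r hne w₀ hr)
  have hθs : Function.Surjective θ := by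
    let W' : Submodule (ZMod p) V := (LinearMap.range θ).map W.subtype
    have hW' : InvariantUnder H A W' := by
      intro a ha x hx
      obtain ⟨u, ⟨r, rfl⟩, rfl⟩ := hx
      exact ⟨θ (ρ' ⟨a, ha⟩ * r), ⟨_, rfl⟩, rfl⟩
    rcases hmin W' (Submodule.map_subtype_le _ _) hW' with h | h
    · exfalso
      have : (w₀ : V) ∈ W' := ⟨θ 1, ⟨_, rfl⟩, rfl⟩
      rw [h, Submodule.mem_bot] at this
      exact hv₀' this
    · intro u
      obtain ⟨_, ⟨r, rfl⟩, he⟩ : (u : V) ∈ W' := by rw [h]; exact u.2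
      exact ⟨r, Subtype.ext he⟩
  haveI : Finite R := Finite.of_injective θ hθi
  have hcardR : Nat.card R = p ^ Module.finrank (ZMod p) W := by
    rw [Nat.card_eq_of_bijective θ ⟨hθi, hθs⟩, Module.natCard_eq_pow_finrank (K := ZMod p),
      Nat.card_zmod]
  refine ⟨inferInstance, ?_, fun j hj hj0 => ?_⟩
  · letI : Fintype R := Fintype.ofFinite R
    letI : Field R := Fintype.fieldOfDomain R
    have h := Subgroup.card_dvd_of_injective ρ'.toHomUnits fun a b e => hρ' (by
      have := congrArg Units.val e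
      simpa using this)
    rw [Nat.card_units, hcardR] at h
    exact h
  · letI : Fintype R := Fintype.ofFinite R
    haveI : CharP R p := charP_of_injective_algebraMap (algebraMap (ZMod p) R).injective p
    have hfix : ∀ r : R, r ^ p ^ j = r := by
      rintro ⟨r, hr⟩
      induction hr using Algebra.adjoin_induction with
      | mem x hx =>
        obtain ⟨a, rfl⟩ := hx
        obtain ⟨m, hm⟩ := (orderOf_dvd_natCard a).trans hj
        have ha : a ^ p ^ j = a := by
          have h1 : a ^ (p ^ j - 1) = 1 := by rw [hm, pow_mul, pow_orderOf_eq_one, one_pow]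
          calc a ^ p ^ j = a ^ (p ^ j - 1 + 1) := by
                rw [Nat.sub_add_cancel (Nat.one_le_pow _ _ (Fact.out : p.Prime).pos)]
            _ = a := by rw [pow_succ, h1, one_mul]
        exact Subtype.ext (by
          change ρ a ^ p ^ j = ρ a
          rw [← map_pow, ha])
      | algebraMap c =>
        refine Subtype.ext ?_
        change algebraMap (ZMod p) _ c ^ p ^ j = algebraMap (ZMod p) _ c
        rw [← map_pow, ZMod.pow_card_pow]
      | add x y hx hy ihx ihy =>
        change (⟨x, hx⟩ + ⟨y, hy⟩ : R) ^ p ^ j = ⟨x, hx⟩ + ⟨y, hy⟩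
        rw [add_pow_char_pow, ihx, ihy]
      | mul x y hx hy ihx ihy =>
        change (⟨x, hx⟩ * ⟨y, hy⟩ : R) ^ p ^ j = ⟨x, hx⟩ * ⟨y, hy⟩
        rw [mul_pow, ihx, ihy]
    have hpj : 1 < p ^ j := Nat.one_lt_pow hj0.ne' (Fact.out : p.Prime).one_lt
    open Polynomial in
    have hle : Fintype.card R ≤ p ^ j := by
      have hdeg : (X ^ p ^ j - X : R[X]).natDegree = p ^ j := by
        rw [natDegree_sub_eq_left_of_natDegree_lt] <;> simp [hpj]
      have hne : (X ^ p ^ j - X : R[X]) ≠ 0 := fun e => by simp [e] at hdeg; omega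
      have hsub : (Finset.univ : Finset R) ⊆ (X ^ p ^ j - X : R[X]).roots.toFinset := fun r _ => by
        simp [hne, hfix r]
      calc Fintype.card R ≤ (X ^ p ^ j - X : R[X]).roots.toFinset.card := Finset.card_le_card hsub
        _ ≤ _ := (Multiset.toFinset_card_le _).trans (card_roots' _)
        _ = p ^ j := hdeg
    rw [← Nat.card_eq_fintype_card, hcardR] at hle
    exact (Nat.pow_le_pow_iff_right (Fact.out : p.Prime).one_lt).1 hle

/-- A maximal normal abelian subgroup is cyclic and reducible. -/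
theorem max_abelian_cyclic_reducible (hreg : RegularOnVectors H)
    (hI : ∀ A : Subgroup H, A.Normal → IsCyclic A →
      ∃ W : Submodule (ZMod p) V, W ≠ ⊥ ∧ W ≠ ⊤ ∧ InvariantUnder H A W)
    {A : Subgroup H} (hAn : A.Normal) (hAc : IsMulCommutative A) :
    IsCyclic A ∧ ∃ W : Submodule (ZMod p) V, W ≠ ⊥ ∧ W ≠ ⊤ ∧ InvariantUnder H A W ∧
      (∀ W' : Submodule (ZMod p) V, W' ≤ W → InvariantUnder H A W' → W' = ⊥ ∨ W' = W) ∧
      Nat.card A ∣ p ^ Module.finrank (ZMod p) W - 1 ∧
      ∀ j : ℕ, Nat.card A ∣ p ^ j - 1 → 0 < j → Module.finrank (ZMod p) W ≤ j := by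
  obtain ⟨W₁, hW₁, -, -⟩ := hI ⊥ inferInstance inferInstance
  haveI : Nontrivial V := by
    obtain ⟨v, -, hv⟩ := W₁.exists_mem_ne_zero_of_ne_bot hW₁
    exact ⟨⟨v, 0, hv⟩⟩
  obtain ⟨W, hW, hinv, hmin⟩ := exists_minimal_invariant A
  obtain ⟨hc, hd, hl⟩ := abelian_structure hreg hAc hW hinv hmin
  obtain ⟨W₀, hW₀, hW₀', hinv₀⟩ := hI A hAn hc
  refine ⟨hc, W, hW, ?_, hinv, hmin, hd, hl⟩
  rintro rfl
  rcases hmin W₀ le_top hinv₀ with h | h
  exacts [hW₀ h, hW₀' h]

theorem centralizer_ne_self (hreg : RegularOnVectors H)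
    (hI : ∀ A : Subgroup H, A.Normal → IsCyclic A →
      ∃ W : Submodule (ZMod p) V, W ≠ ⊥ ∧ W ≠ ⊤ ∧ InvariantUnder H A W)
    {A : Subgroup H} (hAn : A.Normal) (hAc : IsMulCommutative A) :
    Subgroup.centralizer (A : Set H) ≠ A := by
  intro hC
  obtain ⟨hcyc, W, hW, hW', -, -, hd, hl⟩ := max_abelian_cyclic_reducible hreg hI hAn hAc
  obtain ⟨v, hvW, hv⟩ := W.exists_mem_ne_zero_of_ne_bot hW
  haveI : Finite H := finite_subgroup
  haveI : Nontrivial V := ⟨⟨v, 0, hv⟩⟩
  have hcard := card_regular hreg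
  set n := Module.finrank (ZMod p) V
  set k := Module.finrank (ZMod p) W
  have hk0 : 0 < k := by
    haveI : Nontrivial W := ⟨⟨⟨v, hvW⟩, 0, fun e => hv (congrArg Subtype.val e)⟩⟩
    exact Module.finrank_pos
  have hkn : k < n := Submodule.finrank_lt hW'
  have hdn : Nat.card A ∣ p ^ n - 1 := by
    have := Subgroup.card_subgroup_dvd_card A
    rwa [show Nat.card H = p ^ n - 1 by omega] at this
  have hgcd : Nat.card A ∣ p ^ Nat.gcd k n - 1 := by
    rw [← Nat.pow_sub_one_gcd_pow_sub_one]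
    exact Nat.dvd_gcd hd hdn
  have hkg : k ≤ Nat.gcd k n := hl _ hgcd (Nat.gcd_pos_of_pos_left n hk0)
  have hkd : k ∣ n := by
    have : Nat.gcd k n = k := le_antisymm (Nat.le_of_dvd hk0 (Nat.gcd_dvd_left k n)) hkg
    exact this ▸ Nat.gcd_dvd_right k n
  have h2k : 2 * k ≤ n := by
    obtain ⟨m, hm⟩ := hkd
    have : 2 ≤ m := by
      by_contra hm2
      interval_cases m <;> omega
    nlinarith
  -- the automorphisms of a cyclic group are at most its order
  let φ : H →* MulAut A := MulAut.conjNormal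
  have hker : φ.ker ≤ A := by
    intro h hh
    rw [← hC]
    intro a ha
    have e := congrArg Subtype.val (DFunLike.congr_fun (MonoidHom.mem_ker.1 hh) (⟨a, ha⟩ : A))
    simp only [φ, MulAut.conjNormal_apply, MulAut.one_apply] at e
    calc a * h = (h * a * h⁻¹) * h := by rw [e]
      _ = h * a := by group
  have hidx : φ.ker.index ≤ Nat.card A := by
    rw [Subgroup.index_ker]
    obtain ⟨g, hg⟩ := hcyc.exists_generator
    refine le_trans ?_ (Nat.card_le_card_of_injective (fun e : φ.range => (e : MulAut A) g) ?_)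
    · exact le_rfl
    · intro e f hef
      refine Subtype.ext (MulEquiv.ext fun x => ?_)
      obtain ⟨z, rfl⟩ := Subgroup.mem_zpowers_iff.1 (hg x)
      rw [map_zpow, map_zpow]
      exact congrArg (· ^ z) hef
  have hH : Nat.card H ≤ Nat.card A * Nat.card A := by
    rw [← Subgroup.index_mul_card φ.ker]
    exact Nat.mul_le_mul hidx (Subgroup.card_le_of_le hker)
  have hA : Nat.card A ≤ p ^ k - 1 := Nat.le_of_dvd (by
    have := Nat.one_lt_pow hk0.ne' (Fact.out : p.Prime).one_lt; omega) hd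
  have hpn : p ^ (2 * k) ≤ p ^ n := Nat.pow_le_pow_right (Fact.out : p.Prime).pos h2k
  rw [two_mul, pow_add] at hpn
  have hp1 := Nat.one_lt_pow hk0.ne' (Fact.out : p.Prime).one_lt
  obtain ⟨q, hq⟩ : ∃ q, p ^ k = q + 1 := ⟨p ^ k - 1, by omega⟩
  rw [hq] at hA hpn
  have hAA : Nat.card A * Nat.card A ≤ q * q := Nat.mul_le_mul (by omega) (by omega)
  nlinarith

end Cfsg.Agent.PermLib
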